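import Cfsg.Agent.H955.QClass
import Cfsg.Agent.H884.OmegaGL
import Cfsg.Agent.LieClassical.OrthCenter
import Cfsg.Agent.LieClassical.OrthFourCommon
import Cfsg.Agent.ClassicalGeometry.OrthDickson
import Cfsg.Agent.S0302

/-!
# S3691, box O6p: `Ω₆⁺(q) ≅ SL₄(q)`, `q = 2 ^ f` (helper544)

* `omega_equiv` : the isomorphism; `index_omega` : the index of `Ω` in the isometry group is two
* `exists_sub` : the subgroup of `SL₄(q)` of a subgroup of the isometry group
-/

set_option autoImplicit false
set_option linter.unusedSectionVars false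

namespace Cfsg.Agent.H544.O6p

open Cfsg Cfsg.Geo Module QuadraticMap Cfsg.Agent.H955 Cfsg.Agent.LieClassical.OrthCore Cfsg.Agent.LieClassical.OrthTrans
open Cfsg.Agent.LieClassical.QuadForms
open Cfsg.Agent.H884.OmegaGL (bundle nondeg_bundle)
open scoped Matrix MatrixGroups

theorem commutator_equiv {G H : Type*} [Group G] [Group H] (e : G ≃* H) :
    Nonempty (commutator G ≃* commutator H) := by
  have h1 : (commutator G).map (e : G →* H) = commutator H := by
    rw [_root_.commutator_def, _root_.commutator_def, Subgroup.map_commutator]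
    rw [Subgroup.map_top_of_surjective _ e.surjective]
  exact ⟨(e.subgroupMap (commutator G)).trans (MulEquiv.subgroupCongr h1)⟩

theorem polar_nondeg {F : Type} [Field F] {ι : Type} [Fintype ι] [DecidableEq ι] {Q : QuadraticForm F (ι → F)}
    (h : Nondeg Q) : (polarBilin Q).Nondegenerate := by
  refine ⟨fun x hx => h x fun y => hx y, fun x hx => h x fun y => ?_⟩
  have := hx y
  change polar Q y x = 0 at this
  rw [polar_comm]
  exact this

/-- a subgroup in which the products of the outer elements are inner has index at most two -/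
theorem index_le_two' {G : Type*} [Group G] [Finite G] {D R : Subgroup G}
    (h : ∀ x ∈ R, ∀ y ∈ R, x ∉ D → y ∉ D → x⁻¹ * y ∈ D) : (D.subgroupOf R).index ∣ 2 := by
  have h2 : (D.subgroupOf R).index ≤ 2 := by
    by_contra hcon
    push Not at hcon
    rw [Subgroup.index_eq_card] at hcon
    have hfin : Finite (↥R ⧸ D.subgroupOf R) := inferInstance
    have : Fintype (↥R ⧸ D.subgroupOf R) := Fintype.ofFinite _
    rw [Nat.card_eq_fintype_card, Fintype.two_lt_card_iff] at hcon
    obtain ⟨a, b, c, hab, hac, hbc⟩ := hcon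
    have key : ∀ u v : ↥R ⧸ D.subgroupOf R, u ≠ ((1 : ↥R) : ↥R ⧸ D.subgroupOf R) → v ≠ ((1 : ↥R) : ↥R ⧸ D.subgroupOf R) →
        u = v := by
      intro u v
      induction u using QuotientGroup.induction_on with
      | H x =>
        induction v using QuotientGroup.induction_on with
        | H y =>
          intro hx hy
          rw [QuotientGroup.eq]
          apply h x x.2 y y.2
          · intro hD
            apply hx
            rw [QuotientGroup.eq, mul_one]
            exact (D.subgroupOf R).inv_mem hD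
          · intro hD
            apply hy
            rw [QuotientGroup.eq, mul_one]
            exact (D.subgroupOf R).inv_mem hD
    by_cases h1 : a = ((1 : ↥R) : ↥R ⧸ D.subgroupOf R)
    · exact hbc (key b c (fun e => hab (h1.trans e.symm)) (fun e => hac (h1.trans e.symm)))
    · by_cases h3 : b = ((1 : ↥R) : ↥R ⧸ D.subgroupOf R)
      · exact hac (key a c h1 (fun e => hbc (h3.trans e.symm)))
      · exact hab (key a b h1 h3)
  have h0 : (D.subgroupOf R).index ≠ 0 := Subgroup.index_ne_zero_of_finite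
  interval_cases (D.subgroupOf R).index <;> omega

section iso

variable {F : Type} [Field F] [Fintype F] {f : ℕ}

theorem two_zero (hf : 1 ≤ f) (hF : Fintype.card F = 2 ^ f) : (2 : F) = 0 := by
  have hF0 : ((Fintype.card F : ℕ) : F) = 0 := FiniteField.cast_card_eq_zero F
  rw [hF, Nat.cast_pow] at hF0
  exact_mod_cast (pow_eq_zero_iff (by omega)).1 hF0

theorem sl_equiv (h2 : (2 : F) = 0) :
    Nonempty (Matrix.ProjectiveSpecialLinearGroup (Fin 4) F ≃* specialLinear (Fin 4) F) := by
  have h : Subgroup.center (Matrix.SpecialLinearGroup (Fin 4) F) = ⊥ := by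
    rw [eq_bot_iff]
    intro A hA
    obtain ⟨r, hr, hA⟩ := Matrix.SpecialLinearGroup.mem_center_iff.1 hA
    rw [Fintype.card_fin] at hr
    have h1 : (r - 1) ^ 4 = 0 := by linear_combination hr + (-2 * r ^ 3 + 3 * r ^ 2 - 2 * r + 1) * h2
    have h2 : r = 1 := sub_eq_zero.1 (pow_eq_zero_iff (by norm_num) |>.1 h1)
    rw [Subgroup.mem_bot]
    apply Subtype.ext
    rw [← hA, h2, map_one]
    rfl
  have e1 : Matrix.ProjectiveSpecialLinearGroup (Fin 4) F ≃* Matrix.SpecialLinearGroup (Fin 4) F :=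
    (QuotientGroup.quotientMulEquivOfEq h).trans QuotientGroup.quotientBot
  have hr : (Matrix.SpecialLinearGroup.toGL : Matrix.SpecialLinearGroup (Fin 4) F →* GL (Fin 4) F).range =
      specialLinear (Fin 4) F := by
    ext g
    constructor
    · rintro ⟨s, rfl⟩
      apply Units.ext
      exact s.2
    · intro hg
      have hg' : (g : Matrix (Fin 4) (Fin 4) F).det = 1 := congrArg Units.val (MonoidHom.mem_ker.1 hg)
      exact ⟨⟨g, hg'⟩, Units.ext rfl⟩
  have hi : Function.Injective (Matrix.SpecialLinearGroup.toGL : Matrix.SpecialLinearGroup (Fin 4) F →* GL (Fin 4) F) := by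
    intro a b hab
    apply Subtype.ext
    exact congrArg Units.val hab
  exact ⟨e1.trans ((MonoidHom.ofInjective hi).trans (MulEquiv.subgroupCongr hr))⟩

theorem isPlus {Q : (Fin 3 ⊕ Fin 3 → F) → F} (hQ : IsNondegenerateQuadraticForm Q) (hm : IsPlusTypeOn Q ⊤) :
    IsPlus (bundle Q hQ) := by
  obtain ⟨U, -, hU, hd⟩ := hm
  exact ⟨U, hU, by rw [hd, finrank_top]⟩

/-- **the isomorphism** -/
theorem omega_equiv (hf : 1 ≤ f) (hF : Fintype.card F = 2 ^ f)
    {Q : (Fin 3 ⊕ Fin 3 → F) → F} (hQ : IsNondegenerateQuadraticForm Q) (hm : IsPlusTypeOn Q ⊤) :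
    Nonempty (omegaGL Q ≃* specialLinear (Fin 4) F) := by
  have h2 := two_zero hf hF
  obtain ⟨e, he⟩ := exists_plus_equiv 3 (bundle Q hQ) (nondeg_bundle Q hQ)
    (by rw [finrank_fintype_fun_eq_card]; rfl) (isPlus hQ hm)
  obtain ⟨e1⟩ := LieClassical.OrthFourCommon.exists_isometryGroup_equiv e Q (quadFormPlus 3 F) (fun v => by
    have := he v
    rwa [coe_plusForm] at this)
  obtain ⟨e2⟩ := LieClassical.OrthFourCommon.exists_isometryGroup_equiv (LinearEquiv.refl F _) (quadFormPlus 3 F)
    (quadFormPlus 3 F) (fun _ => rfl)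
  obtain ⟨e3⟩ := commutator_equiv (e1.trans e2.symm)
  have hc : Subgroup.center (Omega F (quadFormPlus 3 F)) = ⊥ := by
    have h1 : Subgroup.center (Omega F ⇑(plusForm 3 F)) = ⊥ := by
      refine LieClassical.OrthCenter.center_omega_eq_bot_char_two h2 (polar_nondeg (nondeg_plus 3)) (by simp) ?_
      refine ⟨Pi.single (Sum.inl 0) 1, ?_, ?_⟩
      · intro h0
        have := congrFun h0 (Sum.inl 0)
        simp at this
      · rw [coe_plusForm]
        simp [quadFormPlus]
    rwa [coe_plusForm] at h1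
  obtain ⟨e5⟩ := Cfsg.Agent.S0302.result (F := F)
  obtain ⟨e6⟩ := sl_equiv h2
  have e4 : POmega F (quadFormPlus 3 F) ≃* Omega F (quadFormPlus 3 F) :=
    (QuotientGroup.quotientMulEquivOfEq hc).trans QuotientGroup.quotientBot
  have e7 : Omega F Q ≃* omegaGL Q := Subgroup.equivMapOfInjective _ _ (Subgroup.subtype_injective _)
  exact ⟨e7.symm.trans (e3.trans (e4.symm.trans (e5.trans e6)))⟩

theorem index_omega (hf : 1 ≤ f) (hF : Fintype.card F = 2 ^ f) {Q : (Fin 3 ⊕ Fin 3 → F) → F}
    (hQ : IsNondegenerateQuadraticForm Q) : (commutator (Cfsg.isometryGroup F Q)).index = 2 :=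
  ClassicalGeometry.OrthDickson.index_commutator_two (bundle Q hQ) (two_zero hf hF) (polar_nondeg (nondeg_bundle Q hQ))
    (Or.inr (by decide))

theorem inv_mul_mem_omega (hf : 1 ≤ f) (hF : Fintype.card F = 2 ^ f) {Q : (Fin 3 ⊕ Fin 3 → F) → F}
    (hQ : IsNondegenerateQuadraticForm Q) {x y : GL (Fin 3 ⊕ Fin 3) F} (hx : x ∈ Cfsg.isometryGroup F Q)
    (hy : y ∈ Cfsg.isometryGroup F Q) (hx0 : x ∉ omegaGL Q) (hy0 : y ∉ omegaGL Q) : x⁻¹ * y ∈ omegaGL Q := by
  have hidx := index_omega hf hF hQ
  have key : ∀ z : Cfsg.isometryGroup F Q, (z : GL (Fin 3 ⊕ Fin 3) F) ∈ omegaGL Q ↔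
      z ∈ commutator (Cfsg.isometryGroup F Q) := by
    intro z
    constructor
    · rintro ⟨w, hw, hwz⟩
      have : w = z := Subtype.ext hwz
      rwa [← this]
    · intro hz
      exact ⟨z, hz, rfl⟩
  have h1 := Subgroup.mul_mem_iff_of_index_two hidx (a := (⟨x, hx⟩ : Cfsg.isometryGroup F Q)⁻¹)
    (b := (⟨y, hy⟩ : Cfsg.isometryGroup F Q))
  rw [← key, ← key, ← key] at h1
  apply h1.2
  constructor
  · intro h2
    exfalso
    apply hx0
    have h3 := (omegaGL Q).inv_mem h2
    simpa using h3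
  · intro h2
    exact absurd h2 hy0

/-- **the subgroup of `SL_4(q)`** -/
theorem exists_sub (hf : 1 ≤ f) (hF : Fintype.card F = 2 ^ f) {Q : (Fin 3 ⊕ Fin 3 → F) → F}
    (hQ : IsNondegenerateQuadraticForm Q) (hm : IsPlusTypeOn Q ⊤) {R : Subgroup (GL (Fin 3 ⊕ Fin 3) F)}
    (hR : R ≤ Cfsg.isometryGroup F Q) : ∃ X : Subgroup (GL (Fin 4) F), X ≤ specialLinear (Fin 4) F ∧
      (X = specialLinear (Fin 4) F → omegaGL Q ≤ R) ∧ Nat.card X ∣ Nat.card R ∧ Nat.card R ∣ 2 * Nat.card X := by
  classical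
  have hfin1 : Finite (GL (Fin 3 ⊕ Fin 3) F) := inferInstance
  have hfin2 : Finite (GL (Fin 4) F) := inferInstance
  obtain ⟨E⟩ := omega_equiv hf hF hQ hm
  set Y := R.subgroupOf (omegaGL Q) with hY
  set X := (Y.map E.toMonoidHom).map (specialLinear (Fin 4) F).subtype with hX
  have hXY : Nat.card X = Nat.card Y := by
    rw [hX, Subgroup.card_map_of_injective (Subgroup.subtype_injective _), Subgroup.card_map_of_injective E.injective]
  have hYR : Nat.card Y = Nat.card ((omegaGL Q).subgroupOf R) := by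
    have h1 : Nat.card Y = Nat.card (R ⊓ omegaGL Q : Subgroup (GL (Fin 3 ⊕ Fin 3) F)) := by
      rw [← Subgroup.subgroupOf_map_subtype, Subgroup.card_map_of_injective (Subgroup.subtype_injective _)]
    have h2 : Nat.card ((omegaGL Q).subgroupOf R) = Nat.card (omegaGL Q ⊓ R : Subgroup (GL (Fin 3 ⊕ Fin 3) F)) := by
      rw [← Subgroup.subgroupOf_map_subtype, Subgroup.card_map_of_injective (Subgroup.subtype_injective _)]
    rw [h1, h2, inf_comm]
  refine ⟨X, Subgroup.map_subtype_le _, ?_, ?_, ?_⟩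
  · intro h
    have h1 : Nat.card Y = Nat.card (omegaGL Q) := by
      rw [← hXY, h]
      exact (Nat.card_congr E.toEquiv).symm
    have h2 : Y = ⊤ := Subgroup.eq_top_of_card_eq _ h1
    exact Subgroup.subgroupOf_eq_top.1 h2
  · rw [hXY, hYR]
    exact Subgroup.card_subgroup_dvd_card _
  · rw [hXY, hYR, ← Subgroup.index_mul_card ((omegaGL Q).subgroupOf R)]
    exact Nat.mul_dvd_mul_right (index_le_two' fun x hx y hy hx0 hy0 =>
      inv_mul_mem_omega hf hF hQ (hR hx) (hR hy) hx0 hy0) _

end iso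

end Cfsg.Agent.H544.O6p
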